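import Mathlib

/-!
# Metacyclic groups given by a presentation

`P N n ρ τ` is the group with generators `x, y` and relations `x ^ N = 1`, `y ^ n = x ^ τ`,
`y x y⁻¹ = x ^ ρ`. When `ρ ^ n ≡ 1` and `ρ τ ≡ τ` modulo `N`, every element is uniquely of the form
`x ^ i y ^ j` with `i` modulo `N` and `0 ≤ j < n`.
-/

set_option autoImplicit false
set_option linter.unusedSectionVars false
set_option linter.style.haveILetI false
set_option linter.unusedSimpArgs false

namespace Cfsg.Agent.Lib.Metacyc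

/-! ### A concrete model -/

/-- The semidirect product of `ZMod N` and `ℤ` with `1 : ℤ` acting as multiplication by `u`. -/
@[ext] structure Sd {N : ℕ} (u : (ZMod N)ˣ) where
  v : ZMod N
  k : ℤ

namespace Sd

variable {N : ℕ} {u : (ZMod N)ˣ}

instance : Mul (Sd u) := ⟨fun a b => ⟨a.v + ((u ^ a.k : (ZMod N)ˣ) : ZMod N) * b.v, a.k + b.k⟩⟩
instance : One (Sd u) := ⟨⟨0, 0⟩⟩
instance : Inv (Sd u) := ⟨fun a => ⟨-(((u ^ (-a.k) : (ZMod N)ˣ) : ZMod N) * a.v), -a.k⟩⟩

@[simp] theorem mul_v (a b : Sd u) : (a * b).v = a.v + ((u ^ a.k : (ZMod N)ˣ) : ZMod N) * b.v := rfl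
@[simp] theorem mul_k (a b : Sd u) : (a * b).k = a.k + b.k := rfl
@[simp] theorem one_v : (1 : Sd u).v = 0 := rfl
@[simp] theorem one_k : (1 : Sd u).k = 0 := rfl
@[simp] theorem inv_v (a : Sd u) : (a⁻¹).v = -(((u ^ (-a.k) : (ZMod N)ˣ) : ZMod N) * a.v) := rfl
@[simp] theorem inv_k (a : Sd u) : (a⁻¹).k = -a.k := rfl

instance : Group (Sd u) := Group.ofLeftAxioms
  (by
    intro a b c
    ext
    · simp only [mul_v, mul_k, zpow_add, Units.val_mul]; ring
    · simp only [mul_k]; ring)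
  (by
    intro a
    ext
    · simp
    · simp)
  (by
    intro a
    ext
    · simp
    · simp)

theorem pow_mk_zero (a : ZMod N) (i : ℕ) : (⟨a, 0⟩ : Sd u) ^ i = ⟨i * a, 0⟩ := by
  induction i with
  | zero => ext <;> simp
  | succ i ih =>
    rw [pow_succ, ih]
    ext
    · simp; ring
    · simp

theorem pow_mk_one (j : ℕ) : (⟨0, 1⟩ : Sd u) ^ j = ⟨0, j⟩ := by
  induction j with
  | zero => ext <;> simp
  | succ j ih =>
    rw [pow_succ, ih]
    ext
    · simp
    · simp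

/-- the projection to `ℤ` -/
def toZ : Sd u →* Multiplicative ℤ where
  toFun a := Multiplicative.ofAdd a.k
  map_one' := rfl
  map_mul' _ _ := rfl

theorem zpow_k (a : Sd u) (q : ℤ) : (a ^ q).k = q * a.k := by
  have h := map_zpow (toZ (u := u)) a q
  have h2 : Multiplicative.ofAdd (a ^ q).k = (Multiplicative.ofAdd a.k) ^ q := h
  rw [← ofAdd_zsmul] at h2
  simpa using Multiplicative.ofAdd.injective h2

theorem zpow_fix {τ' : ZMod N} (h : (u : ZMod N) * τ' = τ') (q : ℤ) :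
    ((u ^ q : (ZMod N)ˣ) : ZMod N) * τ' = τ' := by
  have h' : ((u⁻¹ : (ZMod N)ˣ) : ZMod N) * τ' = τ' := by
    nth_rewrite 1 [← h]
    rw [← mul_assoc, ← Units.val_mul, inv_mul_cancel, Units.val_one, one_mul]
  induction q using Int.induction_on with
  | zero => simp
  | succ i ih =>
    rw [zpow_add_one, Units.val_mul, mul_assoc, h, ih]
  | pred i ih =>
    rw [zpow_sub_one, Units.val_mul, mul_assoc, h', ih]

end Sd

/-- The existence of a model. -/
theorem exists_model {N n ρ τ : ℕ} (hn : 0 < n) (hρ : (ρ : ZMod N) ^ n = 1)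
    (hτ : (ρ : ZMod N) * τ = τ) :
    ∃ (Q : Type) (_ : Group Q) (X Y : Q), X ^ N = 1 ∧ Y ^ n = X ^ τ ∧ Y * X * Y⁻¹ = X ^ ρ ∧
      ∀ i j : ℕ, j < n → X ^ i * Y ^ j = 1 → N ∣ i ∧ j = 0 := by
  let u : (ZMod N)ˣ := Units.ofPowEqOne (ρ : ZMod N) n hρ hn.ne'
  have hu : (u : ZMod N) = ρ := rfl
  have hun : u ^ n = 1 := Units.pow_ofPowEqOne hρ hn.ne'
  let ω : Sd u := ⟨-(τ : ZMod N), n⟩
  have hfix : ∀ q : ℤ, ((u ^ q : (ZMod N)ˣ) : ZMod N) * (τ : ZMod N) = (τ : ZMod N) :=
    Sd.zpow_fix (by rw [hu]; exact hτ)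
  have hcent : ∀ e : Sd u, e * ω = ω * e := by
    intro e
    ext
    · simp only [Sd.mul_v, ω, mul_neg, hfix]
      have : ((u ^ (n : ℤ) : (ZMod N)ˣ) : ZMod N) = 1 := by
        rw [zpow_natCast, hun, Units.val_one]
      rw [this, one_mul]
      ring
    · simp only [Sd.mul_k, ω]
      ring
  haveI hnormal : (Subgroup.zpowers ω).Normal := by
    refine ⟨?_⟩
    rintro _ ⟨q, rfl⟩ g
    have hc : Commute g (ω ^ q) := ((show Commute g ω from hcent g)).zpow_right q
    have : g * (fun x => ω ^ x) q * g⁻¹ = ω ^ q := by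
      show g * ω ^ q * g⁻¹ = ω ^ q
      rw [hc.eq]; group
    rw [this]
    exact ⟨q, rfl⟩
  refine ⟨Sd u ⧸ Subgroup.zpowers ω, inferInstance,
    QuotientGroup.mk (⟨1, 0⟩ : Sd u), QuotientGroup.mk (⟨0, 1⟩ : Sd u), ?_, ?_, ?_, ?_⟩
  · rw [← QuotientGroup.mk_pow, Sd.pow_mk_zero]
    have : (⟨(N : ZMod N) * 1, 0⟩ : Sd u) = 1 := by
      ext
      · simp
      · rfl
    rw [this]
    rfl
  · rw [← QuotientGroup.mk_pow, ← QuotientGroup.mk_pow, Sd.pow_mk_one, Sd.pow_mk_zero, QuotientGroup.eq]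
    refine ⟨-1, ?_⟩
    ext
    · have : ((u ^ (-(n : ℤ)) : (ZMod N)ˣ) : ZMod N) * (τ : ZMod N) = (τ : ZMod N) := hfix _
      simp [ω, this]
    · simp [ω]
  · rw [← QuotientGroup.mk_pow, ← QuotientGroup.mk_inv, ← QuotientGroup.mk_mul, ← QuotientGroup.mk_mul,
      Sd.pow_mk_zero]
    congr 1
    ext
    · simp [hu]
    · simp
  · intro i j hj h
    rw [← QuotientGroup.mk_pow, ← QuotientGroup.mk_pow, ← QuotientGroup.mk_mul, Sd.pow_mk_one,
      Sd.pow_mk_zero, QuotientGroup.eq_one_iff] at h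
    obtain ⟨q, hq⟩ := h
    have hk := congrArg Sd.k hq
    have hk' : (ω ^ q).k = q * n := Sd.zpow_k ω q
    have hk2 : (ω ^ q).k = ((⟨(i : ZMod N) * 1, 0⟩ : Sd u) * ⟨0, (j : ℤ)⟩).k := hk
    have hk3 : q * (n : ℤ) = j := by
      rw [← hk', hk2]
      simp
    have hq0 : q = 0 := by
      by_contra hne
      have h1 : (n : ℤ) ∣ j := ⟨q, by rw [← hk3]; ring⟩
      have h2 : (j : ℤ) = 0 := by
        apply Int.eq_zero_of_abs_lt_dvd h1
        rw [abs_of_nonneg (by positivity)]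
        exact_mod_cast hj
      rw [h2] at hk3
      rcases mul_eq_zero.mp hk3 with h3 | h3
      · exact hne h3
      · have : n = 0 := by exact_mod_cast h3
        omega
    subst hq0
    have hj0 : j = 0 := by
      have : (j : ℤ) = 0 := by simpa using hk3.symm
      exact_mod_cast this
    refine ⟨?_, hj0⟩
    have hv := congrArg Sd.v hq
    have hv2 : (1 : Sd u).v = ((⟨(i : ZMod N) * 1, 0⟩ : Sd u) * ⟨0, (j : ℤ)⟩).v := by
      have h0 : (fun x => ω ^ x) (0 : ℤ) = (1 : Sd u) := zpow_zero ω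
      rw [← h0]
      exact hv
    have hv3 : (i : ZMod N) = 0 := by
      simpa using hv2.symm
    exact (ZMod.natCast_eq_zero_iff i N).mp hv3

/-! ### The presented group -/

/-- The relators of the metacyclic group. -/
def rels (N n ρ τ : ℕ) : Set (FreeGroup Bool) :=
  {FreeGroup.of true ^ N, (FreeGroup.of false) ^ n * (FreeGroup.of true ^ τ)⁻¹,
    FreeGroup.of false * FreeGroup.of true * (FreeGroup.of false)⁻¹ * (FreeGroup.of true ^ ρ)⁻¹}

/-- The metacyclic group. -/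
abbrev P (N n ρ τ : ℕ) : Type := PresentedGroup (rels N n ρ τ)

variable {N n ρ τ : ℕ}

/-- the first generator -/
def xx : P N n ρ τ := PresentedGroup.of true

/-- the second generator -/
def yy : P N n ρ τ := PresentedGroup.of false

theorem xx_pow : (xx : P N n ρ τ) ^ N = 1 := by
  have h : PresentedGroup.mk (rels N n ρ τ) (FreeGroup.of true ^ N) = 1 :=
    PresentedGroup.one_of_mem (by simp [rels])
  rw [map_pow] at h
  exact h

theorem yy_pow : (yy : P N n ρ τ) ^ n = xx ^ τ := by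
  have h : PresentedGroup.mk (rels N n ρ τ) ((FreeGroup.of false) ^ n * (FreeGroup.of true ^ τ)⁻¹) = 1 :=
    PresentedGroup.one_of_mem (by simp [rels])
  rw [map_mul, map_inv, map_pow, map_pow] at h
  exact mul_inv_eq_one.mp h

theorem yy_conj : (yy : P N n ρ τ) * xx * yy⁻¹ = xx ^ ρ := by
  have h : PresentedGroup.mk (rels N n ρ τ)
      (FreeGroup.of false * FreeGroup.of true * (FreeGroup.of false)⁻¹ * (FreeGroup.of true ^ ρ)⁻¹) = 1 :=
    PresentedGroup.one_of_mem (by simp [rels])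
  rw [map_mul, map_mul, map_mul, map_inv, map_inv, map_pow] at h
  exact mul_inv_eq_one.mp h

/-- A homomorphism out of the presented group. -/
noncomputable def lift {G : Type*} [Group G] (X Y : G) (h1 : X ^ N = 1) (h2 : Y ^ n = X ^ τ)
    (h3 : Y * X * Y⁻¹ = X ^ ρ) : P N n ρ τ →* G :=
  PresentedGroup.toGroup (f := fun b => if b then X else Y) (by
    intro r hr
    simp only [rels, Set.mem_insert_iff, Set.mem_singleton_iff] at hr
    rcases hr with rfl | rfl | rfl
    · simpa using h1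
    · simp [h2]
    · simp [h3])

theorem lift_xx {G : Type*} [Group G] (X Y : G) (h1 : X ^ N = 1) (h2 : Y ^ n = X ^ τ)
    (h3 : Y * X * Y⁻¹ = X ^ ρ) : lift (N := N) (n := n) (ρ := ρ) (τ := τ) X Y h1 h2 h3 xx = X := by
  simp [lift, xx]

theorem lift_yy {G : Type*} [Group G] (X Y : G) (h1 : X ^ N = 1) (h2 : Y ^ n = X ^ τ)
    (h3 : Y * X * Y⁻¹ = X ^ ρ) : lift (N := N) (n := n) (ρ := ρ) (τ := τ) X Y h1 h2 h3 yy = Y := by
  simp [lift, yy]

/-- The normal form is unique. -/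
theorem normal_form (hn : 0 < n) (hρ : (ρ : ZMod N) ^ n = 1) (hτ : (ρ : ZMod N) * τ = τ)
    {i j : ℕ} (hj : j < n) (h : (xx : P N n ρ τ) ^ i * yy ^ j = 1) : N ∣ i ∧ j = 0 := by
  obtain ⟨Q, _, X, Y, h1, h2, h3, h4⟩ := exists_model (N := N) (τ := τ) hn hρ hτ
  apply h4 i j hj
  have := congrArg (lift (N := N) (n := n) (ρ := ρ) (τ := τ) X Y h1 h2 h3) h
  simpa [lift_xx, lift_yy] using this

/-- conjugating by a power of `y` -/
theorem yy_pow_mul_xx (j : ℕ) : (yy : P N n ρ τ) ^ j * xx = xx ^ (ρ ^ j) * yy ^ j := by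
  induction j with
  | zero => simp
  | succ j ih =>
    have h1 : (yy : P N n ρ τ) * xx = xx ^ ρ * yy := by
      rw [← yy_conj]; group
    have h2 : ∀ k : ℕ, (yy : P N n ρ τ) * xx ^ k = xx ^ (ρ * k) * yy := by
      intro k
      induction k with
      | zero => simp
      | succ k ihk =>
        rw [pow_succ, ← mul_assoc, ihk, mul_assoc, h1, ← mul_assoc, ← pow_add]
        congr 2
    rw [pow_succ', mul_assoc, ih, ← mul_assoc, h2, mul_assoc, ← pow_succ']

/-- Every element has the normal form. -/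
theorem exists_form (hN : 0 < N) (hn : 0 < n) (g : P N n ρ τ) :
    ∃ i j : ℕ, j < n ∧ g = xx ^ i * yy ^ j := by
  -- the right multipliers of the normal forms
  let R : P N n ρ τ → Prop := fun g =>
    ∀ i j : ℕ, j < n → ∃ i' j' : ℕ, j' < n ∧ xx ^ i * yy ^ j * g = xx ^ i' * yy ^ j'
  have Rmul : ∀ g h, R g → R h → R (g * h) := by
    intro g h hg hh i j hj
    obtain ⟨i', j', hj', e⟩ := hg i j hj
    obtain ⟨i'', j'', hj'', e'⟩ := hh i' j' hj'
    exact ⟨i'', j'', hj'', by rw [← mul_assoc, e, e']⟩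
  have Rone : R 1 := fun i j hj => ⟨i, j, hj, by simp⟩
  have Rpow : ∀ g, R g → ∀ k : ℕ, R (g ^ k) := by
    intro g hg k
    induction k with
    | zero => simpa using Rone
    | succ k ih => rw [pow_succ]; exact Rmul _ _ ih hg
  have Rx : R xx := by
    intro i j hj
    refine ⟨i + ρ ^ j, j, hj, ?_⟩
    rw [mul_assoc, yy_pow_mul_xx, ← mul_assoc, ← pow_add]
  have Ry : R yy := by
    intro i j hj
    by_cases h : j + 1 < n
    · exact ⟨i, j + 1, h, by rw [mul_assoc, ← pow_succ]⟩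
    · have hjn : j + 1 = n := by omega
      refine ⟨i + τ, 0, hn, ?_⟩
      rw [mul_assoc, ← pow_succ, hjn, yy_pow, pow_zero, mul_one, pow_add]
  have Rxi : R (xx⁻¹) := by
    have h : (xx : P N n ρ τ)⁻¹ = xx ^ (N - 1) := by
      rw [inv_eq_iff_mul_eq_one, ← pow_succ', Nat.sub_add_cancel hN, xx_pow]
    rw [h]
    exact Rpow _ Rx _
  have Ryi : R (yy⁻¹) := by
    have h1 : (yy : P N n ρ τ) ^ (n * N) = 1 := by
      rw [pow_mul, yy_pow, ← pow_mul, mul_comm, pow_mul, xx_pow, one_pow]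
    have h : (yy : P N n ρ τ)⁻¹ = yy ^ (n * N - 1) := by
      rw [inv_eq_iff_mul_eq_one, ← pow_succ', Nat.sub_add_cancel (Nat.mul_pos hn hN), h1]
    rw [h]
    exact Rpow _ Ry _
  have Rall : ∀ g, R g := by
    intro g
    induction g using PresentedGroup.induction_on with
    | H z =>
      induction z using FreeGroup.induction_on with
      | C1 => simpa using Rone
      | of b =>
        cases b
        · exact Ry
        · exact Rx
      | inv_of b _ =>
        cases b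
        · rw [map_inv]; exact Ryi
        · rw [map_inv]; exact Rxi
      | mul a b ha hb =>
        rw [map_mul]
        exact Rmul _ _ ha hb
  obtain ⟨i', j', hj', e⟩ := Rall g 0 0 hn
  exact ⟨i', j', hj', by simpa using e⟩

/-- The group is finite. -/
theorem finite_P (hN : 0 < N) (hn : 0 < n) : Finite (P N n ρ τ) := by
  haveI : NeZero N := ⟨hN.ne'⟩
  haveI : NeZero n := ⟨hn.ne'⟩
  refine Finite.of_surjective (fun p : Fin N × Fin n => (xx : P N n ρ τ) ^ (p.1 : ℕ) * yy ^ (p.2 : ℕ)) ?_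
  intro g
  obtain ⟨i, j, hj, rfl⟩ := exists_form hN hn g
  refine ⟨(⟨i % N, Nat.mod_lt _ hN⟩, ⟨j, hj⟩), ?_⟩
  show xx ^ (i % N) * yy ^ j = xx ^ i * yy ^ j
  rw [← pow_eq_pow_mod i xx_pow]

/-- The order of the first generator. -/
theorem orderOf_xx (hn : 0 < n) (hρ : (ρ : ZMod N) ^ n = 1) (hτ : (ρ : ZMod N) * τ = τ) :
    orderOf (xx : P N n ρ τ) = N := by
  apply Nat.dvd_antisymm
  · exact orderOf_dvd_of_pow_eq_one xx_pow
  · have h := normal_form (N := N) (τ := τ) (i := orderOf (xx : P N n ρ τ)) (j := 0) hn hρ hτ hn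
      (by rw [pow_orderOf_eq_one, pow_zero, one_mul])
    exact h.1

end Cfsg.Agent.Lib.Metacyc
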