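import Mathlib
import Cfsg.Agent.Lib.Schur.Stem
import Cfsg.Agent.Lib.Metacyc.Model

/-!
# Stem extensions of metacyclic groups: the upper bound
-/

set_option autoImplicit false
set_option linter.unusedSectionVars false
set_option linter.style.haveILetI false
set_option linter.unusedSimpArgs false

namespace Cfsg.Agent.Lib.Metacyc

open Subgroup Cfsg.Agent.Lib.Schur.Stem

variable {m n r t : ℕ}

theorem closure_xx_yy (hm : 0 < m) (hn : 0 < n) :
    closure ({xx, yy} : Set (P m n r t)) = ⊤ := by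
  rw [eq_top_iff]
  intro g _
  obtain ⟨i, j, _, rfl⟩ := exists_form hm hn g
  exact mul_mem (pow_mem (subset_closure (by simp)) _) (pow_mem (subset_closure (by simp)) _)

/-- The commutator computation in a stem extension of a metacyclic group. -/
theorem stem_data (hm : 0 < m) (hn : 0 < n) (hr : 0 < r)
    {Γ : Type*} [Group Γ] [Finite Γ] (σ : Γ →* P m n r t) (hσ : Cfsg.IsStemExtension σ) :
    ∃ c : Γ, σ.ker ≤ zpowers c ∧ σ c = xx ^ (r - 1) ∧ c ^ m = 1 ∧ c ^ t = 1 ∧
      c ^ (∑ i ∈ Finset.range n, r ^ i) = 1 := by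
  obtain ⟨x, hx⟩ := hσ.1 xx
  obtain ⟨y, hy⟩ := hσ.1 yy
  have hcen : ∀ {w : Γ}, σ w = 1 → ∀ g : Γ, Commute g w := by
    intro w hw g
    exact mem_center_iff.1 (hσ.2.1 (MonoidHom.mem_ker.2 hw)) g
  obtain ⟨z3, hz3⟩ : ∃ z3, z3 = y * x * y⁻¹ * (x ^ r)⁻¹ := ⟨_, rfl⟩
  have hσz3 : σ z3 = 1 := by
    rw [hz3]
    simp only [map_mul, map_inv, map_pow, hx, hy, yy_conj, mul_inv_cancel]
  have hW : y * x * y⁻¹ = z3 * x ^ r := by rw [hz3, inv_mul_cancel_right]
  obtain ⟨c, hc⟩ : ∃ c, c = y * x * y⁻¹ * x⁻¹ := ⟨_, rfl⟩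
  have hcz : c = z3 * x ^ (r - 1) := by
    rw [hc, hW, mul_assoc]
    congr 1
    have h1 : x ^ r = x ^ (r - 1) * x := by
      rw [← pow_succ, Nat.sub_add_cancel hr]
    rw [h1, mul_inv_cancel_right]
  have hcx : Commute c x := by
    rw [hcz]
    exact (hcen hσz3 x).symm.mul_left (Commute.pow_left (Commute.refl x) _)
  have hWc : y * x * y⁻¹ = x * c := by
    rw [hcx.symm.eq, hc, inv_mul_cancel_right]
  have K1 : ∀ k : ℕ, y * x ^ k * y⁻¹ = x ^ k * c ^ k := by
    intro k
    rw [← conj_pow, hWc, hcx.symm.mul_pow]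
  have K2 : y * c * y⁻¹ = c ^ r := by
    have h1 : y * c * y⁻¹ = z3 * (y * x ^ (r - 1) * y⁻¹) := by
      rw [hcz]
      have := (hcen hσz3 y).eq
      calc y * (z3 * x ^ (r - 1)) * y⁻¹ = (y * z3) * x ^ (r - 1) * y⁻¹ := by group
        _ = (z3 * y) * x ^ (r - 1) * y⁻¹ := by rw [this]
        _ = z3 * (y * x ^ (r - 1) * y⁻¹) := by group
    rw [h1, K1, ← mul_assoc, ← hcz, ← pow_succ', Nat.sub_add_cancel hr]
  have K3 : ∀ k : ℕ, y ^ k * x * (y ^ k)⁻¹ = x * c ^ (∑ i ∈ Finset.range k, r ^ i) := by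
    intro k
    induction k with
    | zero => simp
    | succ k ih =>
      have h1 : y ^ (k + 1) * x * (y ^ (k + 1))⁻¹ = y * (y ^ k * x * (y ^ k)⁻¹) * y⁻¹ := by
        rw [pow_succ']
        group
      rw [h1, ih]
      have h2 : y * (x * c ^ (∑ i ∈ Finset.range k, r ^ i)) * y⁻¹ =
          (y * x * y⁻¹) * (y * c ^ (∑ i ∈ Finset.range k, r ^ i) * y⁻¹) := by group
      rw [h2, hWc, ← conj_pow, K2, ← pow_mul, mul_assoc, geom_sum_succ, pow_succ']
  have hconjfix : ∀ {w : Γ}, σ w = 1 → ∀ g : Γ, g * w * g⁻¹ = w := by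
    intro w hw g
    rw [(hcen hw g).eq, mul_inv_cancel_right]
  -- the relation `y ^ n = z2 * x ^ t`
  obtain ⟨z2, hz2⟩ : ∃ z2, z2 = y ^ n * (x ^ t)⁻¹ := ⟨_, rfl⟩
  have hσz2 : σ z2 = 1 := by
    rw [hz2]
    simp only [map_mul, map_inv, map_pow, hx, hy, yy_pow, mul_inv_cancel]
  have hyn : y ^ n = z2 * x ^ t := by rw [hz2, inv_mul_cancel_right]
  have hyt : y * x ^ t * y⁻¹ = x ^ t := by
    have h1 : Commute y (y ^ n) := (Commute.refl y).pow_right n
    rw [hyn] at h1
    have h2 : Commute y (x ^ t) := by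
      have h3 : x ^ t = z2⁻¹ * (z2 * x ^ t) := by group
      rw [h3]
      exact (hcen hσz2 y).inv_right.mul_right h1
    rw [h2.eq, mul_inv_cancel_right]
  have hσxm : σ (x ^ m) = 1 := by rw [map_pow, hx, xx_pow]
  have hxyn : y ^ n * x * (y ^ n)⁻¹ = x := by
    have h1 : Commute (y ^ n) x := by
      rw [hyn]
      exact (hcen hσz2 x).symm.mul_left ((Commute.refl x).pow_left t)
    rw [h1.eq, mul_inv_cancel_right]
  refine ⟨c, ?_, ?_, ?_, ?_, ?_⟩
  · -- the kernel is contained in the cyclic group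
    let T : Set Γ := {x, y} ∪ (σ.ker : Set Γ)
    have hT : closure T = ⊤ := by
      apply closure_lifts_eq_top σ hσ.1 (closure_xx_yy hm hn)
      · intro w hw
        rcases hw with rfl | hw
        · exact ⟨x, Or.inl (Or.inl rfl), hx⟩
        · rw [Set.mem_singleton_iff] at hw
          subst hw
          exact ⟨y, Or.inl (Or.inr rfl), hy⟩
      · exact fun w hw => Or.inr hw
    haveI hC : (zpowers c).Normal := by
      apply normal_zpowers_of_closure hT
      intro w hw
      rcases hw with (rfl | hw) | hw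
      · rw [hcx.symm.eq, mul_inv_cancel_right]
        exact mem_zpowers c
      · rw [Set.mem_singleton_iff] at hw
        subst hw
        rw [K2]
        exact pow_mem (mem_zpowers c) r
      · have h1 := (hcen (MonoidHom.mem_ker.1 hw) c).symm.eq
        rw [h1, mul_inv_cancel_right]
        exact mem_zpowers c
    have hcomm : commutator Γ ≤ zpowers c := by
      apply commutator_le_of_closure hT
      have hcase : ∀ u ∈ T, ∀ w ∈ (σ.ker : Set Γ), u * w * u⁻¹ * w⁻¹ ∈ zpowers c := by
        intro u _ w hw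
        rw [hconjfix (MonoidHom.mem_ker.1 hw) u, mul_inv_cancel]
        exact one_mem _
      have hcase2 : ∀ w ∈ (σ.ker : Set Γ), ∀ u : Γ, w * u * w⁻¹ * u⁻¹ ∈ zpowers c := by
        intro w hw u
        have h1 := (hcen (MonoidHom.mem_ker.1 hw) u).symm.eq
        rw [h1, mul_inv_cancel_right, mul_inv_cancel]
        exact one_mem _
      rintro u hu w hw
      rcases hw with (rfl | hw) | hw
      · rcases hu with (rfl | hu) | hu
        · simp [one_mem]
        · rw [Set.mem_singleton_iff] at hu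
          subst hu
          rw [← hc]
          exact mem_zpowers c
        · exact hcase2 u hu _
      · rw [Set.mem_singleton_iff] at hw
        subst hw
        rcases hu with (rfl | hu) | hu
        · have h1 : u * w * u⁻¹ * w⁻¹ = c⁻¹ := by
            rw [hc]; group
          rw [h1]
          exact inv_mem (mem_zpowers c)
        · rw [Set.mem_singleton_iff] at hu
          subst hu
          simp [one_mem]
        · exact hcase2 u hu _
      · exact hcase u hu w hw
    exact le_trans hσ.2.2 hcomm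
  · rw [hc]
    simp only [map_mul, map_inv, hx, hy, yy_conj]
    have h1 : (xx : P m n r t) ^ r = xx ^ (r - 1) * xx := by
      rw [← pow_succ, Nat.sub_add_cancel hr]
    rw [h1, mul_inv_cancel_right]
  · have h1 := K1 m
    rw [hconjfix hσxm y] at h1
    exact mul_eq_left.mp h1.symm
  · have h1 := K1 t
    rw [hyt] at h1
    exact mul_eq_left.mp h1.symm
  · have h1 := K3 n
    rw [hxyn] at h1
    exact mul_eq_left.mp h1.symm

end Cfsg.Agent.Lib.Metacyc
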