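import Mathlib
import Cfsg.Agent.Lib.Schur.Stem
import Cfsg.Agent.Lib.Metacyc.Model
import Cfsg.Agent.Lib.Metacyc.Bound

/-!
# The Schur multiplier of a metacyclic group (Beyl)
-/

set_option autoImplicit false
set_option linter.unusedSectionVars false
set_option linter.style.haveILetI false
set_option linter.unusedSimpArgs false

namespace Cfsg.Agent.Lib.Metacyc

open Subgroup Cfsg.Agent.Lib.Schur.Stem
open scoped commutatorElement

/-! ### Arithmetic -/

/-- Elementary: a translate of `A` by a multiple of `M` whose common divisors with `X` divide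
`gcd A M`. -/
theorem exists_gcd_dvd (A M X : ℕ) (hM : 0 < M) (hX : 0 < X) :
    ∃ k : ℕ, Nat.gcd (A + k * M) X ∣ Nat.gcd A M := by
  classical
  obtain ⟨A₁, M₁, hco, hA, hMM⟩ := Nat.exists_coprime A M
  have hg₀ : 0 < Nat.gcd A M := Nat.gcd_pos_of_pos_right A hM
  generalize Nat.gcd A M = g₀ at hA hMM hg₀ ⊢
  let k : ℕ := ∏ p ∈ X.primeFactors.filter (fun p => ¬ p ∣ A₁), p
  have hk : ∀ p : ℕ, p.Prime → p ∣ X → (p ∣ k ↔ ¬ p ∣ A₁) := by
    intro p hp hpX
    constructor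
    · intro hpk
      obtain ⟨q, hq, hpq⟩ := (Prime.exists_mem_finset_dvd hp.prime hpk)
      rw [Finset.mem_filter, Nat.mem_primeFactors] at hq
      have hq' : p = q := (Nat.prime_dvd_prime_iff_eq hp hq.1.1).mp hpq
      rw [hq']
      exact hq.2
    · intro hpA
      apply Finset.dvd_prod_of_mem
      rw [Finset.mem_filter, Nat.mem_primeFactors]
      exact ⟨⟨hp, hpX, hX.ne'⟩, hpA⟩
  have hcop : Nat.Coprime (A₁ + k * M₁) X := by
    apply Nat.Coprime.symm
    apply Nat.coprime_of_dvd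
    intro p hp hpX hpc
    by_cases hpA : p ∣ A₁
    · have h1 : p ∣ k * M₁ := (Nat.dvd_add_right hpA).mp hpc
      rcases (Nat.Prime.dvd_mul hp).mp h1 with h2 | h2
      · exact ((hk p hp hpX).mp h2) hpA
      · exact Nat.Prime.not_coprime_iff_dvd.mpr ⟨p, hp, hpA, h2⟩ hco
    · have h1 : p ∣ k := (hk p hp hpX).mpr hpA
      have h2 : p ∣ k * M₁ := Dvd.dvd.mul_right h1 _
      exact hpA ((Nat.dvd_add_left h2).mp hpc)
  refine ⟨k, ?_⟩
  have h1 : A + k * M = (A₁ + k * M₁) * g₀ := by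
    rw [hA, hMM]; ring
  rw [h1, Nat.Coprime.gcd_mul_left_cancel _ hcop]
  exact Nat.gcd_dvd_left _ _

/-- The geometric sum identity. -/
theorem geom_id (ρ n : ℕ) (hρ : 0 < ρ) :
    (∑ i ∈ Finset.range n, ρ ^ i) * (ρ - 1) + 1 = ρ ^ n := by
  obtain ⟨x, rfl⟩ : ∃ x, ρ = x + 1 := ⟨ρ - 1, by omega⟩
  simpa using geom_sum_mul_add x n

/-- `ρ` is an `n`-th root of unity as soon as the modulus divides `S * (ρ - 1)`. -/
theorem root_of_dvd {N ρ n : ℕ} (hρ : 0 < ρ) (h : N ∣ (∑ i ∈ Finset.range n, ρ ^ i) * (ρ - 1)) :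
    (ρ : ZMod N) ^ n = 1 := by
  have h1 := geom_id ρ n hρ
  have h2 : ((ρ ^ n : ℕ) : ZMod N) = 1 := by
    rw [← h1, Nat.cast_add, (ZMod.natCast_eq_zero_iff _ _).mpr h, Nat.cast_one, zero_add]
  simpa using h2

/-- The fixed point relation. -/
theorem fix_tau {N m l ρ d : ℕ} (hd : d ∣ m) (hd0 : 0 < d) (hN : N ∣ m * l) (hρ : 0 < ρ)
    (hdρ : d ∣ ρ - 1) : (ρ : ZMod N) * ((m * l / d : ℕ) : ZMod N) = ((m * l / d : ℕ) : ZMod N) := by
  obtain ⟨e, rfl⟩ := hd
  obtain ⟨α, hα⟩ := hdρ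
  have h1 : d * e * l / d = e * l := by
    rw [mul_assoc, Nat.mul_div_cancel_left _ hd0]
  rw [h1]
  have h2 : ((ρ : ℕ) : ZMod N) = 1 + ((ρ - 1 : ℕ) : ZMod N) := by
    have : ρ = 1 + (ρ - 1) := by omega
    conv_lhs => rw [this]
    push_cast
    ring
  have h3 : (((ρ - 1) * (e * l) : ℕ) : ZMod N) = 0 := by
    rw [ZMod.natCast_eq_zero_iff, hα]
    obtain ⟨q, hq⟩ := hN
    exact ⟨q * α, by rw [show d * α * (e * l) = d * e * l * α by ring, hq]; ring⟩
  rw [h2, add_mul, one_mul, ← Nat.cast_mul, h3, add_zero]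

/-! ### The upper bound -/

section main

variable {m n r l d g t : ℕ}

/-- the basic arithmetic of the parameters -/
theorem dvd_dg (hr : 0 < r) (hrn : r ^ n ≡ 1 [MOD m]) (hd : d = Nat.gcd m (r - 1))
    (hg : g = Nat.gcd m (∑ i ∈ Finset.range n, r ^ i)) : m ∣ d * g := by
  rw [hd, hg, mul_comm, Nat.dvd_gcd_mul_gcd_iff_dvd_mul]
  have h1 := geom_id r n hr
  have h2 : (∑ i ∈ Finset.range n, r ^ i) * (r - 1) + 1 ≡ 0 + 1 [MOD m] := by
    rw [h1, zero_add]
    exact hrn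
  have h3 := Nat.ModEq.add_right_cancel' 1 h2
  exact (Nat.modEq_zero_iff_dvd).mp h3

/-- the kernel of a stem extension is cyclic of order dividing `gcd(l, h)` -/
theorem upper (hm : 0 < m) (hn : 0 < n) (hr : 0 < r) (hrn : r ^ n ≡ 1 [MOD m])
    (hd : d = Nat.gcd m (r - 1)) (hg : g = Nat.gcd m (∑ i ∈ Finset.range n, r ^ i))
    (ht : t = m * l / d)
    {Γ : Type*} [Group Γ] [Finite Γ]
    (σ : Γ →* P m n r t) (hσ : Cfsg.IsStemExtension σ) :
    IsCyclic σ.ker ∧ Nat.card σ.ker ∣ Nat.gcd l (d * g / m) := by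
  have hdm : d ∣ m := hd ▸ Nat.gcd_dvd_left _ _
  have hd0 : 0 < d := hd ▸ Nat.gcd_pos_of_pos_left _ hm
  have hdr : d ∣ r - 1 := hd ▸ Nat.gcd_dvd_right _ _
  have hρ : (r : ZMod m) ^ n = 1 := by
    have := (ZMod.natCast_eq_natCast_iff _ _ _).mpr hrn
    simpa using this
  have hτ : (r : ZMod m) * t = t := by
    rw [ht]
    exact fix_tau hdm hd0 (Dvd.intro _ rfl) hr hdr
  obtain ⟨c, hk, hσc, hcm, hct, hcs⟩ := stem_data hm hn hr σ hσ
  have hcard := card_ker_mul_orderOf σ hk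
  haveI : Finite (P m n r t) := finite_P hm hn
  have hocc : orderOf (σ c) = m / d := by
    rw [hσc, orderOf_pow, orderOf_xx hn hρ hτ, hd]
  rw [hocc] at hcard
  obtain ⟨e, he⟩ := hdm
  have he0 : 0 < e := by
    rcases Nat.eq_zero_or_pos e with h | h
    · rw [h] at he; omega
    · exact h
  have hmd : m / d = e := by rw [he, Nat.mul_div_cancel_left _ hd0]
  rw [hmd] at hcard
  obtain ⟨w, hw⟩ : ∃ w, w = Nat.card σ.ker := ⟨_, rfl⟩
  rw [← hw] at hcard ⊢
  have h1 : orderOf c ∣ t := orderOf_dvd_of_pow_eq_one hct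
  have h2 : orderOf c ∣ m := orderOf_dvd_of_pow_eq_one hcm
  have h3 : orderOf c ∣ g := hg ▸ Nat.dvd_gcd h2 (orderOf_dvd_of_pow_eq_one hcs)
  rw [← hcard] at h1 h3
  have ht' : t = l * e := by
    rw [ht, he, mul_assoc, Nat.mul_div_cancel_left _ hd0]; ring
  constructor
  · have : IsCyclic (zpowers c) := inferInstance
    exact isCyclic_of_injective (Subgroup.inclusion hk) (Subgroup.inclusion_injective hk)
  · apply Nat.dvd_gcd
    · rw [ht'] at h1
      exact Nat.dvd_of_mul_dvd_mul_right he0 h1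
    · have h4 : m ∣ d * g := dvd_dg hr hrn hd hg
      obtain ⟨h', hh'⟩ := h4
      have hm0 : 0 < m := hm
      rw [hh', Nat.mul_div_cancel_left _ hm]
      -- `w * e ∣ g`, so `m * w ∣ m * h'`
      have h5 : m * w ∣ m * h' := by
        rw [← hh']
        obtain ⟨q, hq⟩ := h3
        exact ⟨q, by rw [hq, he]; ring⟩
      exact Nat.dvd_of_mul_dvd_mul_left hm h5

/-- A surjection from `ZMod u` onto a cyclic group of order dividing `u`. -/
theorem exists_surj {K : Type*} [Group K] (hK : IsCyclic K) {u : ℕ} (hd : Nat.card K ∣ u) :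
    ∃ π : Multiplicative (ZMod u) →* K, Function.Surjective π := by
  let e := zmodCyclicMulEquiv hK
  let φ : ZMod u →+* ZMod (Nat.card K) := ZMod.castHom hd _
  refine ⟨e.toMonoidHom.comp (AddMonoidHom.toMultiplicative φ.toAddMonoidHom), ?_⟩
  intro x
  obtain ⟨y, hy⟩ := e.surjective x
  obtain ⟨z, hz⟩ := ZMod.castHom_surjective hd (Multiplicative.toAdd y)
  refine ⟨Multiplicative.ofAdd z, ?_⟩
  rw [← hy]
  exact congrArg e (congrArg Multiplicative.ofAdd hz)

/-! ### The extension -/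

/-- The stem extension attached to a good lift of the parameters. -/
theorem exists_stem (hm : 0 < m) (hn : 0 < n) (hr : 0 < r) (hrn : r ^ n ≡ 1 [MOD m])
    (hd : d = Nat.gcd m (r - 1)) (hg : g = Nat.gcd m (∑ i ∈ Finset.range n, r ^ i))
    (ht : t = m * l / d) :
    ∃ (Γ : Type) (_ : Group Γ) (_ : Finite Γ) (σ : Γ →* P m n r t), Cfsg.IsStemExtension σ ∧
      Nonempty (σ.ker ≃* Multiplicative (ZMod (Nat.gcd l (d * g / m)))) := by
  have hdm : d ∣ m := hd ▸ Nat.gcd_dvd_left _ _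
  have hd0 : 0 < d := hd ▸ Nat.gcd_pos_of_pos_left _ hm
  have hdr : d ∣ r - 1 := hd ▸ Nat.gcd_dvd_right _ _
  have hg0 : 0 < g := hg ▸ Nat.gcd_pos_of_pos_left _ hm
  have hgm : g ∣ m := hg ▸ Nat.gcd_dvd_left _ _
  obtain ⟨h, hh⟩ := dvd_dg hr hrn hd hg
  have hh' : d * g / m = h := by rw [hh, Nat.mul_div_cancel_left _ hm]
  rw [hh']
  have hh0 : 0 < h := by
    rcases Nat.eq_zero_or_pos h with h0 | h0
    · rw [h0, mul_zero] at hh
      exact absurd hh (Nat.mul_pos hd0 hg0).ne'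
    · exact h0
  obtain ⟨u, hu⟩ : ∃ u, u = Nat.gcd l h := ⟨_, rfl⟩
  rw [← hu]
  have hu0 : 0 < u := hu ▸ Nat.gcd_pos_of_pos_right _ hh0
  have hul : u ∣ l := hu ▸ Nat.gcd_dvd_left _ _
  have huh : u ∣ h := hu ▸ Nat.gcd_dvd_right _ _
  -- `h` divides `d`
  have hhd : h ∣ d := by
    obtain ⟨q, hq⟩ := hgm
    refine ⟨q, ?_⟩
    have h1 : g * d = g * (h * q) := by
      calc g * d = d * g := by ring
        _ = m * h := hh
        _ = g * (h * q) := by rw [hq]; ring
    exact Nat.eq_of_mul_eq_mul_left hg0 h1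
  have hud : u ∣ d := huh.trans hhd
  -- the lift of `r`
  obtain ⟨k, hk⟩ := exists_gcd_dvd (r - 1) m (m * u) hm (Nat.mul_pos hm hu0)
  obtain ⟨r', hr'⟩ : ∃ r', r' = r + k * m := ⟨_, rfl⟩
  have hr'0 : 0 < r' := by omega
  have hr'1 : r' - 1 = r - 1 + k * m := by omega
  have hmod : r' ≡ r [MOD m] := by
    rw [hr']
    simp [Nat.ModEq]
  have hd' : Nat.gcd m (r' - 1) = d := by
    rw [hr'1, hd, Nat.gcd_comm, Nat.gcd_comm m (r - 1)]
    exact Nat.gcd_add_mul_right_left _ _ _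
  have hg' : Nat.gcd m (∑ i ∈ Finset.range n, r' ^ i) = g := by
    rw [hg, Nat.gcd_comm, Nat.gcd_comm m]
    apply Nat.ModEq.gcd_eq
    apply (ZMod.natCast_eq_natCast_iff _ _ _).mp
    push_cast
    have : (r' : ZMod m) = r := (ZMod.natCast_eq_natCast_iff _ _ _).mpr hmod
    rw [this]
  have hdr' : d ∣ r' - 1 := hd' ▸ Nat.gcd_dvd_right _ _
  have hur' : u ∣ r' - 1 := hud.trans hdr'
  have hroot : ((r' : ℕ) : ZMod (m * u)) ^ n = 1 := by
    apply root_of_dvd hr'0
    have h1 : d * g ∣ (∑ i ∈ Finset.range n, r' ^ i) * (r' - 1) := by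
      rw [mul_comm d g]
      exact Nat.mul_dvd_mul (hg' ▸ Nat.gcd_dvd_right _ _) hdr'
    rw [hh] at h1
    exact (Nat.mul_dvd_mul_left m huh).trans h1
  have hfix : ((r' : ℕ) : ZMod (m * u)) * t = t := by
    rw [ht]
    exact fix_tau hdm hd0 (Nat.mul_dvd_mul_left m hul) hr'0 hdr'
  have hrootG : (r : ZMod m) ^ n = 1 := by
    have := (ZMod.natCast_eq_natCast_iff _ _ _).mpr hrn
    simpa using this
  have hfixG : (r : ZMod m) * t = t := by
    rw [ht]
    exact fix_tau hdm hd0 (Dvd.intro _ rfl) hr hdr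
  -- the homomorphism
  have h1 : (xx : P m n r t) ^ (m * u) = 1 := by rw [pow_mul, xx_pow, one_pow]
  have h2 : (yy : P m n r t) ^ n = xx ^ t := yy_pow
  have h3 : (yy : P m n r t) * xx * yy⁻¹ = xx ^ r' := by
    rw [yy_conj, hr', pow_add, mul_comm k m, pow_mul, xx_pow, one_pow, mul_one]
  let σ : P (m * u) n r' t →* P m n r t := lift xx yy h1 h2 h3
  have hσx : σ xx = xx := lift_xx _ _ _ _ _
  have hσy : σ yy = yy := lift_yy _ _ _ _ _
  have hmu : 0 < m * u := Nat.mul_pos hm hu0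
  have hker : σ.ker = zpowers ((xx : P (m * u) n r' t) ^ m) := by
    apply le_antisymm
    · intro w hw
      obtain ⟨i, j, hj, rfl⟩ := exists_form hmu hn w
      have h4 : (xx : P m n r t) ^ i * yy ^ j = 1 := by
        have := MonoidHom.mem_ker.mp hw
        simpa [hσx, hσy] using this
      obtain ⟨⟨q, rfl⟩, rfl⟩ := normal_form hn hrootG hfixG hj h4
      rw [pow_zero, mul_one, pow_mul]
      exact pow_mem (mem_zpowers _) q
    · rw [zpowers_le, MonoidHom.mem_ker, map_pow, hσx, xx_pow]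
  have hordx : orderOf (xx : P (m * u) n r' t) = m * u := orderOf_xx hn hroot hfix
  have hordm : orderOf ((xx : P (m * u) n r' t) ^ m) = u := by
    rw [orderOf_pow_of_dvd hm.ne' (by rw [hordx]; exact Dvd.intro _ rfl), hordx,
      Nat.mul_div_cancel_left _ hm]
  have hcomm : Commute (yy : P (m * u) n r' t) (xx ^ m) := by
    have h5 : (yy : P (m * u) n r' t) * xx ^ m * yy⁻¹ = xx ^ m := by
      rw [← conj_pow, yy_conj, ← pow_mul]
      obtain ⟨q, hq⟩ := hur'
      have h6 : r' * m = m + (m * u) * q := by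
        have h61 : r' = 1 + u * q := by omega
        rw [h61]
        ring
      rw [h6, pow_add, pow_mul, xx_pow, one_pow, mul_one]
    exact mul_inv_eq_iff_eq_mul.mp h5
  refine ⟨P (m * u) n r' t, inferInstance, finite_P hmu hn, σ, ⟨?_, ?_, ?_⟩, ?_⟩
  · intro w
    obtain ⟨i, j, _, rfl⟩ := exists_form hm hn w
    exact ⟨xx ^ i * yy ^ j, by simp [hσx, hσy]⟩
  · rw [hker, zpowers_le, mem_center_iff]
    intro w
    obtain ⟨i, j, _, rfl⟩ := exists_form hmu hn w
    have h7 : Commute ((xx : P (m * u) n r' t) ^ i * yy ^ j) (xx ^ m) :=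
      ((Commute.refl xx).pow_pow i m).mul_left (hcomm.pow_left j)
    exact h7.eq
  · rw [hker, zpowers_le]
    -- the commutator contains a power of `xx`
    have hc : (xx : P (m * u) n r' t) ^ (r' - 1) ∈ commutator (P (m * u) n r' t) := by
      have h8 : (xx : P (m * u) n r' t) ^ (r' - 1) = ⁅(yy : P (m * u) n r' t), (xx : P (m * u) n r' t)⁆ := by
        rw [commutatorElement_def, yy_conj]
        have h9 : (xx : P (m * u) n r' t) ^ r' = xx ^ (r' - 1) * xx := by
          rw [← pow_succ, Nat.sub_add_cancel hr'0]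
        rw [h9, mul_inv_cancel_right]
      rw [h8, _root_.commutator_def]
      exact Subgroup.commutator_mem_commutator (mem_top _) (mem_top _)
    obtain ⟨e, he⟩ : ∃ e, e = Nat.gcd (r' - 1) (m * u) := ⟨_, rfl⟩
    have he1 : e ∣ m := by
      rw [he]
      have h10 : Nat.gcd (r' - 1) (m * u) ∣ Nat.gcd (r - 1) m := by
        rw [hr'1]
        exact hk
      exact h10.trans (Nat.gcd_dvd_right _ _)
    have he2 : (xx : P (m * u) n r' t) ^ e ∈ commutator (P (m * u) n r' t) := by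
      have h11 : (e : ℤ) = (r' - 1 : ℕ) * Nat.gcdA (r' - 1) (m * u) + (m * u : ℕ) * Nat.gcdB (r' - 1) (m * u) := by
        rw [he]
        exact Nat.gcd_eq_gcd_ab _ _
      have h12 : (xx : P (m * u) n r' t) ^ (e : ℤ) =
          ((xx : P (m * u) n r' t) ^ (r' - 1)) ^ Nat.gcdA (r' - 1) (m * u) := by
        rw [h11, zpow_add, zpow_mul, zpow_mul, zpow_natCast, zpow_natCast, xx_pow, one_zpow, mul_one]
      have h13 : (xx : P (m * u) n r' t) ^ e = (xx : P (m * u) n r' t) ^ (e : ℤ) := (zpow_natCast _ _).symm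
      rw [h13, h12]
      exact zpow_mem hc _
    obtain ⟨q, hq⟩ := he1
    have hxm : (xx : P (m * u) n r' t) ^ m = (xx ^ e) ^ q := by
      rw [← pow_mul, ← hq]
    rw [hxm]
    exact pow_mem he2 q
  · haveI hcyc : IsCyclic σ.ker := by
      rw [hker]
      infer_instance
    haveI : NeZero u := ⟨hu0.ne'⟩
    refine ⟨mulEquivOfCyclicCardEq ?_⟩
    rw [hker, Nat.card_zpowers, hordm, Nat.card_congr Multiplicative.toAdd, Nat.card_zmod]

/-- **Beyl's formula.** -/
theorem hasCyclicSchurMultiplier_P (hm : 0 < m) (hn : 0 < n) (hr : 0 < r) (hrn : r ^ n ≡ 1 [MOD m])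
    (hd : d = Nat.gcd m (r - 1)) (hg : g = Nat.gcd m (∑ i ∈ Finset.range n, r ^ i))
    (ht : t = m * l / d) :
    Cfsg.HasCyclicSchurMultiplier (P m n r t) (Nat.gcd l (d * g / m)) := by
  refine ⟨exists_stem hm hn hr hrn hd hg ht, ?_⟩
  intro Γ _ _ σ hσ
  obtain ⟨h1, h2⟩ := upper hm hn hr hrn hd hg ht σ hσ
  exact exists_surj h1 h2

end main

end Cfsg.Agent.Lib.Metacyc
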